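import Cfsg.Agent.BN.Words
import Mathlib.GroupTheory.Index
import Mathlib.Data.ZMod.QuotientGroup

/-!
# Groups generated by two involutions

For `I : InvGen B W` with `B = {a, b}` and non-trivial generators: alternating words of length at most
`m = orderOf (s a * s b)` are reduced (`reduced_alt`), the braid relation holds (`wp_alt_orderOf`) and
`Nat.card W = 2 * m` (`card_eq_two_mul`).
-/

namespace Cfsg.Agent.BN.InvGen

variable {B W : Type*} [Group W] (I : InvGen B W)

theorem wp_alt_even (a b : B) (i : ℕ) : I.wp (alt a b (2 * i)) = (I.s a * I.s b) ^ i := by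
  induction i with
  | zero => simp [alt]
  | succ i ih => rw [show 2 * (i + 1) = 2 * i + 1 + 1 by ring, alt, alt, wp_cons, wp_cons, ih, pow_succ', mul_assoc]

theorem wp_alt_odd (a b : B) (i : ℕ) : I.wp (alt a b (2 * i + 1)) = (I.s a * I.s b) ^ i * I.s a := by
  rw [alt, wp_cons, wp_alt_even]
  induction i with
  | zero => simp
  | succ i ih => rw [pow_succ, ← mul_assoc, ih, pow_succ]; simp only [mul_assoc]

/-- The elements of a dihedral group, indexed by the signed length. -/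
def dih (a b : B) (n : ℤ) : W := (I.s a * I.s b) ^ (n / 2) * I.s a ^ (n % 2)

theorem dih_nat (a b : B) (k : ℕ) : I.dih a b k = I.wp (alt a b k) := by
  obtain ⟨i, rfl | rfl⟩ := Nat.even_or_odd' k
  · rw [wp_alt_even, dih, show ((2 * i : ℕ) : ℤ) / 2 = i by omega, show ((2 * i : ℕ) : ℤ) % 2 = 0 by omega]; simp
  · rw [wp_alt_odd, dih, show ((2 * i + 1 : ℕ) : ℤ) / 2 = i by omega, show ((2 * i + 1 : ℕ) : ℤ) % 2 = 1 by omega]; simp

theorem dih_neg (a b : B) (k : ℕ) : I.dih a b (-k) = I.wp (alt b a k) := by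
  have h : I.s b * I.s a = (I.s a * I.s b)⁻¹ := by simp
  obtain ⟨i, rfl | rfl⟩ := Nat.even_or_odd' k
  · rw [wp_alt_even, dih, show -((2 * i : ℕ) : ℤ) / 2 = -i by omega, show -((2 * i : ℕ) : ℤ) % 2 = 0 by omega, h,
      zpow_zero, mul_one, zpow_neg, zpow_natCast, inv_pow]
  · rw [wp_alt_odd, dih, show -((2 * i + 1 : ℕ) : ℤ) / 2 = -i + -1 by omega,
      show -((2 * i + 1 : ℕ) : ℤ) % 2 = 1 by omega, h, zpow_add, zpow_neg, zpow_natCast, inv_pow, zpow_neg, zpow_one,
      zpow_one, mul_assoc, ← h, mul_s_mul_s]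

variable {I} {a b : B}

theorem s_notMem_zpowers (ha : I.s a ≠ 1) (hb : I.s b ≠ 1) : I.s a ∉ Subgroup.zpowers (I.s a * I.s b) := by
  rintro ⟨k, hk⟩
  simp only at hk
  have h1 : Commute (I.s a) (I.s a * I.s b) := by nth_rw 1 [← hk]; exact (Commute.refl _).zpow_left k
  have h2 : (I.s a * I.s b) ^ (2 : ℤ) = 1 := by
    rw [zpow_two]; nth_rw 1 [mul_assoc, ← mul_assoc (I.s b), ← mul_assoc, ← mul_assoc, ← h1.eq]; simp [I.mul_self]
  rw [zpow_eq_zpow_emod k h2] at hk
  rcases Int.emod_two_eq_zero_or_one k with h | h <;> rw [h] at hk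
  · exact ha (by simpa using hk.symm)
  · exact hb (by simpa using hk)

theorem dvd_of_dih_eq (ha : I.s a ≠ 1) (hb : I.s b ≠ 1) {n n' : ℤ} (h : I.dih a b n = I.dih a b n') :
    (2 * orderOf (I.s a * I.s b) : ℤ) ∣ n - n' := by
  have h0 := s_notMem_zpowers ha hb
  simp only [dih] at h
  rcases Int.emod_two_eq_zero_or_one n with h1 | h1 <;> rcases Int.emod_two_eq_zero_or_one n' with h2 | h2 <;>
    rw [h1, h2] at h <;> simp only [zpow_zero, zpow_one, mul_one, mul_left_inj] at h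
  · rw [show n - n' = 2 * (n / 2 - n' / 2) by omega]
    exact mul_dvd_mul_left _ (orderOf_dvd_sub_iff_zpow_eq_zpow.2 h)
  · exact absurd ⟨-(n' / 2) + n / 2, by simp [zpow_add, h]⟩ h0
  · exact absurd ⟨-(n / 2) + n' / 2, by simp [zpow_add, ← h]⟩ h0
  · rw [show n - n' = 2 * (n / 2 - n' / 2) by omega]
    exact mul_dvd_mul_left _ (orderOf_dvd_sub_iff_zpow_eq_zpow.2 h)

theorem Reduced.eq_alt (hB : ∀ i, i = a ∨ i = b) {l : List B} (h : I.Reduced l) :
    l = alt a b l.length ∨ l = alt b a l.length := by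
  induction l with
  | nil => exact Or.inl rfl
  | cons i l ih =>
    have h2 : ∀ l', l ≠ i :: l' := by
      rintro l' rfl
      have := I.len_wp_le l'
      rw [Reduced] at h
      simp at h
      omega
    cases l with
    | nil => rcases hB i with rfl | rfl <;> simp [alt]
    | cons j l =>
      rcases ih h.tail with h3 | h3 <;> rcases hB i with rfl | rfl
      · exact absurd h3 (h2 _)
      · exact Or.inr (congrArg _ h3)
      · exact Or.inl (congrArg _ h3)
      · exact absurd h3 (h2 _)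

theorem exists_dih (hB : ∀ i, i = a ∨ i = b) (w : W) : ∃ n : ℤ, n.natAbs = I.len w ∧ I.dih a b n = w := by
  obtain ⟨l, hl, rfl⟩ := I.exists_reduced' w
  rcases hl.eq_alt hB with h | h
  · exact ⟨l.length, by rw [hl]; rfl, by rw [dih_nat, ← h]⟩
  · exact ⟨-l.length, by rw [hl]; simp, by rw [dih_neg, ← h]⟩

theorem reduced_alt (hB : ∀ i, i = a ∨ i = b) (ha : I.s a ≠ 1) (hb : I.s b ≠ 1) {k : ℕ}
    (hk : k ≤ orderOf (I.s a * I.s b)) : I.Reduced (alt a b k) := by
  obtain ⟨n, h1, h2⟩ := exists_dih hB (I.wp (alt a b k))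
  have h3 := I.len_wp_le (alt a b k)
  rw [Reduced]
  by_contra h4
  rw [length_alt] at h3 h4
  have := Int.le_of_dvd (by omega) (dvd_of_dih_eq ha hb ((I.dih_nat a b k).trans h2.symm))
  omega

theorem wp_alt_orderOf (a b : B) :
    I.wp (alt a b (orderOf (I.s a * I.s b))) = I.wp (alt b a (orderOf (I.s a * I.s b))) := by
  rw [← dih_nat, ← dih_neg, dih, dih]
  have h := pow_orderOf_eq_one (I.s a * I.s b)
  generalize orderOf (I.s a * I.s b) = m at *
  rw [show (m : ℤ) / 2 = m + -m / 2 by omega, zpow_add, zpow_natCast, h, one_mul, show -(m : ℤ) % 2 = m % 2 by omega]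

theorem card_eq_two_mul (hB : ∀ i, i = a ∨ i = b) (ha : I.s a ≠ 1) (hb : I.s b ≠ 1) :
    Nat.card W = 2 * orderOf (I.s a * I.s b) := by
  have h0 := s_notMem_zpowers ha hb
  rw [← Nat.card_zpowers, ← Subgroup.index_mul_card (Subgroup.zpowers (I.s a * I.s b))]
  congr 1
  refine Subgroup.index_eq_two_iff_exists_notMem_and.2 ⟨I.s a, h0, fun w => ?_⟩
  obtain ⟨n, -, rfl⟩ := exists_dih (I := I) hB w
  rw [dih]
  rcases Int.emod_two_eq_zero_or_one n with h1 | h1 <;> rw [h1] <;> simp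

end Cfsg.Agent.BN.InvGen
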