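import Mathlib.NumberTheory.Niven
import Mathlib.LinearAlgebra.Trace
import Mathlib.LinearAlgebra.Matrix.Charpoly.Coeff
import Mathlib.LinearAlgebra.Projection
import Mathlib.RingTheory.RootsOfUnity.Complex

/-!
# The algebraic core of the Feit–Higman theorem

For matrices `a`, `b` satisfying the relations of the Hecke algebra of a dihedral group of order `2m` with parameters
`p, q ≥ 2`, all of whose non-trivial basis elements have trace zero, `m ∈ {2, 3, 4, 6, 8}` (`feit_higman_alg`).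
-/

namespace Cfsg.Agent.BN

open Matrix Finset

variable {X : Type*} [Fintype X] [DecidableEq X]

theorem exists_trace_eq {E : Matrix X X ℂ} {κ : ℂ} (h : E * E = κ • E) : ∃ n : ℕ, E.trace = κ * n := by
  by_cases hκ : κ = 0
  · refine ⟨0, ?_⟩
    have : IsNilpotent E := ⟨2, by rw [sq, h, hκ, zero_smul]⟩
    rw [(Matrix.isNilpotent_trace_of_isNilpotent this).eq_zero]; simp
  · have h1 : IsIdempotentElem (Matrix.toLin' (κ⁻¹ • E)) := by
      rw [IsIdempotentElem, Module.End.mul_eq_comp, ← Matrix.toLin'_mul, smul_mul_smul_comm, h, smul_smul,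
        inv_mul_cancel_right₀ hκ]
    have h2 := (LinearMap.IsIdempotentElem.isProj_range _ h1).trace
    rw [Matrix.trace_toLin'_eq, trace_smul, smul_eq_mul] at h2
    exact ⟨_, by rw [← h2, mul_inv_cancel_left₀ hκ]⟩

/-- The data of a rank two Hecke algebra acting on a permutation module. -/
structure HeckeData (X : Type*) [Fintype X] [DecidableEq X] (m : ℕ) where
  /-- first generator -/
  a : Matrix X X ℂ
  /-- second generator -/
  b : Matrix X X ℂ
  /-- first parameter -/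
  p : ℕ
  /-- second parameter -/
  q : ℕ
  hp : 2 ≤ p
  hq : 2 ≤ q
  ha : a * a = ((p : ℂ) - 1) • a + (p : ℂ) • 1
  hb : b * b = ((q : ℂ) - 1) • b + (q : ℂ) • 1
  tra : a.trace = 0
  tr1 : ∀ i, 2 * i + 1 ≤ m → ((b * a) ^ i * b).trace = 0
  tr2 : ∀ i, 2 * i + 2 ≤ m → (a * ((b * a) ^ i * b)).trace = 0
  even : ∀ d, m = 2 * d + 2 → a * ((b * a) ^ d * b) = (b * a) ^ d * b * a
  odd : ∀ d, m = 2 * d + 3 → a * ((b * a) ^ d * b) * a = (b * a) ^ (d + 1) * b

namespace HeckeData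

variable {m : ℕ} (D : HeckeData X m)

/-- The square root of `p q`. -/
noncomputable def r : ℂ := (Real.sqrt (D.p * D.q) : ℝ)

theorem r_sq : D.r ^ 2 = D.p * D.q := by
  rw [r, ← Complex.ofReal_pow, Real.sq_sqrt (by positivity)]; push_cast; rfl

theorem p_ne : (D.p : ℂ) ≠ 0 := Nat.cast_ne_zero.2 (by have := D.hp; omega)
theorem q_ne : (D.q : ℂ) ≠ 0 := Nat.cast_ne_zero.2 (by have := D.hq; omega)

theorem r_ne : D.r ≠ 0 := fun h => by
  have := D.r_sq
  rw [h] at this
  exact mul_ne_zero D.p_ne D.q_ne (by simpa using this.symm)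

/-- The projection onto the point space. -/
noncomputable def P : Matrix X X ℂ := 1 + D.a

/-- A constant. -/
noncomputable def γ : ℂ := D.p * (D.q - 1) / D.r

/-- The normalised adjacency operator. -/
noncomputable def L : Matrix X X ℂ := D.r⁻¹ • (D.P * D.b - ((D.q : ℂ) - 1) • 1)

/-- The normalised distance operators. -/
noncomputable def Z : ℕ → Matrix X X ℂ
  | 0 => ((D.p + 1) / D.p : ℂ) • D.P
  | i + 1 => D.r⁻¹ ^ (i + 1) • (D.P * ((D.b * D.a) ^ i * D.b) * D.P)

/-- The operators vanishing at both ends. -/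
noncomputable def W : ℕ → Matrix X X ℂ
  | 0 => 0
  | i + 1 => D.Z (i + 2) - D.γ • D.Z (i + 1) - (D.p : ℂ) • D.Z i

theorem P_a : D.P * D.a = (D.p : ℂ) • D.P := by
  rw [P, add_mul, D.ha, one_mul]; module

theorem a_P : D.a * D.P = (D.p : ℂ) • D.P := by
  rw [P, mul_add, D.ha, mul_one]; module

theorem P_P : D.P * D.P = ((D.p : ℂ) + 1) • D.P := by
  nth_rw 1 [P]; rw [add_mul, a_P, one_mul]; module

theorem PbP (Y : Matrix X X ℂ) : D.P * D.b * (D.P * (D.b * Y)) =
    D.P * (D.b * D.a * (D.b * Y)) + ((D.q : ℂ) - 1) • (D.P * (D.b * Y)) + (D.q : ℂ) • (D.P * Y) := by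
  have : D.b * (D.b * Y) = ((D.q : ℂ) - 1) • (D.b * Y) + (D.q : ℂ) • Y := by
    rw [← mul_assoc, D.hb, add_mul, smul_mul_assoc, smul_mul_assoc, one_mul]
  nth_rw 2 [P]
  simp only [add_mul, one_mul, mul_add, mul_assoc, this, mul_smul_comm]
  abel

theorem L_Z (i : ℕ) : D.L * D.Z (i + 1) = D.Z (i + 2) + D.Z i := by
  have h1 := D.r_ne
  have h2 := D.p_ne
  have h3 := D.r_sq
  cases i with
  | zero =>
    have := D.PbP D.P
    simp only [L, Z, pow_zero, one_mul, pow_one, zero_add, smul_mul_assoc, mul_smul_comm, sub_mul, mul_assoc] at this ⊢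
    rw [this, P_P]
    match_scalars <;> field_simp <;> grind
  | succ i =>
    have := D.PbP (D.a * ((D.b * D.a) ^ i * (D.b * D.P)))
    rw [← mul_assoc D.P D.a, P_a] at this
    simp only [L, Z, pow_succ' (D.b * D.a), smul_mul_assoc, mul_smul_comm, sub_mul, mul_assoc, one_mul] at this ⊢
    rw [this]
    match_scalars <;> simp only [pow_succ, pow_zero, inv_pow] <;> field_simp <;> grind

theorem L_Z_zero : (D.p : ℂ) • (D.L * D.Z 0) = ((D.p : ℂ) + 1) • D.Z 1 - D.γ • D.Z 0 := by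
  have h1 := D.r_ne
  have h2 := D.p_ne
  simp only [L, Z, γ, pow_zero, one_mul, zero_add, pow_one, smul_mul_assoc, mul_smul_comm, sub_mul]
  match_scalars <;> field_simp

theorem L_W (i : ℕ) : D.L * D.W (i + 1) = D.W (i + 2) + D.W i := by
  cases i with
  | zero => simp only [W, mul_sub, mul_smul_comm, L_Z, L_Z_zero]; module
  | succ i => simp only [W, mul_sub, mul_smul_comm, L_Z]; module

theorem P_Z (i : ℕ) : D.P * D.Z i = ((D.p : ℂ) + 1) • D.Z i := by
  cases i <;> simp only [Z, mul_smul_comm, ← mul_assoc, P_P, smul_mul_assoc, smul_comm ((D.p : ℂ) + 1)]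

theorem P_W (i : ℕ) : D.P * D.W i = ((D.p : ℂ) + 1) • D.W i := by
  cases i with
  | zero => simp [W]
  | succ i => simp only [W, mul_sub, mul_smul_comm, P_Z]; module

theorem trace_Z {i : ℕ} (h : 2 * i + 2 ≤ m) : (D.Z (i + 1)).trace = 0 := by
  rw [Z, trace_smul, trace_mul_cycle, P_P, smul_mul_assoc, trace_smul, P, add_mul, trace_add, one_mul,
    D.tr1 i (by omega), D.tr2 i h]
  simp

theorem trace_Z_zero : (D.Z 0).trace = (D.p + 1) / D.p * Fintype.card X := by
  rw [Z, trace_smul, P, trace_add, D.tra]; simp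

theorem reflect {u v : ℕ} (h0 : D.W u + D.W (v + 1) = 0) (h1 : D.W (u + 1) + D.W v = 0) (j : ℕ) :
    ∀ w, w + j = v + 1 → D.W (u + j) + D.W w = 0 := by
  induction j using Nat.twoStepInduction with
  | zero => rintro w rfl; exact h0
  | one => intro w h; obtain rfl : w = v := by omega
           exact h1
  | more j ih1 ih2 =>
    intro w h
    have e1 := ih1 (w + 2) (by omega)
    have e2 := congrArg (D.L * ·) (ih2 (w + 1) (by omega))
    simp only [mul_add, ← add_assoc u j 1, L_W, mul_zero] at e2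
    rw [← add_assoc u j 2] at *
    linear_combination (norm := module) e2 - e1

theorem W_even {d : ℕ} (h : m = 2 * d + 2) : D.W (d + 1) = 0 := by
  have h1 := D.r_ne
  have h2 := D.p_ne
  have h3 := D.r_sq
  have h4 : D.P * ((D.b * D.a) ^ (d + 1) * D.b) * D.P =
      ((D.p : ℂ) * (D.q - 1)) • (D.P * ((D.b * D.a) ^ d * D.b) * D.P) +
        ((D.p : ℂ) * D.q) • (D.P * (D.b * D.a) ^ d * D.P) := by
    rw [pow_succ, ← mul_assoc _ D.b D.a, ← D.even d h, mul_assoc D.a, mul_assoc _ D.b, D.hb, ← mul_assoc D.P, P_a]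
    simp only [mul_add, add_mul, smul_mul_assoc, mul_smul_comm, mul_one, mul_assoc]
    module
  cases d with
  | zero =>
    simp only [W, Z, γ, h4, pow_zero, mul_one, P_P]
    match_scalars <;> simp only [pow_succ, pow_zero, inv_pow] <;> field_simp <;> grind
  | succ d =>
    simp only [W, Z, γ, h4]
    rw [pow_succ (D.b * D.a) d, ← mul_assoc _ D.b D.a, ← mul_assoc D.P _ D.a, mul_assoc _ D.a D.P, a_P, mul_smul_comm]
    match_scalars <;> simp only [pow_succ, pow_zero, inv_pow] <;> field_simp <;> grind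

theorem isUnit_a : IsUnit D.a := by
  refine isUnit_iff_exists_inv.2 ⟨(D.p : ℂ)⁻¹ • (D.a - ((D.p : ℂ) - 1) • 1), ?_⟩
  have := D.p_ne
  rw [mul_smul_comm, mul_sub, D.ha, mul_smul_comm, mul_one]
  match_scalars <;> field_simp; ring

theorem isUnit_b : IsUnit D.b := by
  refine isUnit_iff_exists_inv.2 ⟨(D.q : ℂ)⁻¹ • (D.b - ((D.q : ℂ) - 1) • 1), ?_⟩
  have := D.q_ne
  rw [mul_smul_comm, mul_sub, D.hb, mul_smul_comm, mul_one]
  match_scalars <;> field_simp; ring

theorem p_eq_q [Nonempty X] {d : ℕ} (h : m = 2 * d + 3) : D.p = D.q := by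
  have h1 : IsUnit ((D.b * D.a) ^ (d + 1) * D.b) := ((D.isUnit_b.mul D.isUnit_a).pow _).mul D.isUnit_b
  have h2 : (D.b * D.a) ^ (d + 1) * D.b * D.b = D.a * ((D.b * D.a) ^ (d + 1) * D.b) := by
    nth_rw 1 [← D.odd d h]
    simp only [pow_succ, mul_assoc]
  generalize (D.b * D.a) ^ (d + 1) * D.b = Y at h1 h2
  have h3 : Y * (D.b * D.b) = Y * (((D.p : ℂ) - 1) • D.b + (D.p : ℂ) • 1) := by
    rw [← mul_assoc, h2, mul_assoc, h2, ← mul_assoc, D.ha]
    simp only [mul_add, add_mul, smul_mul_assoc, mul_smul_comm, mul_one, one_mul, h2]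
  have h4 := congrArg trace (h1.mul_left_cancel h3)
  have h5 := D.tr1 0 (by omega)
  rw [pow_zero, one_mul] at h5
  simpa [D.hb, h5, eq_comm] using h4

theorem r_eq [Nonempty X] {d : ℕ} (h : m = 2 * d + 3) : D.r = D.p := by
  rw [r, ← D.p_eq_q h, Real.sqrt_mul_self (by positivity)]; rfl

theorem γ_eq [Nonempty X] {d : ℕ} (h : m = 2 * d + 3) : D.γ = D.p - 1 := by
  have := D.p_ne
  rw [γ, D.r_eq h, ← D.p_eq_q h]; field_simp

theorem Z_odd [Nonempty X] {d : ℕ} (h : m = 2 * d + 3) : D.Z (d + 2) = (D.p : ℂ) • D.Z (d + 1) := by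
  have := D.p_ne
  simp only [Z]
  rw [← D.odd d h, ← mul_assoc D.P, mul_assoc _ D.a D.P, a_P, ← mul_assoc D.P D.a, P_a, D.r_eq h]
  simp only [smul_mul_assoc, mul_smul_comm]
  match_scalars; simp only [pow_succ]; field_simp

theorem W_odd [Nonempty X] {d : ℕ} (h : m = 2 * d + 3) : D.W (d + 2) + D.W (d + 1) = 0 := by
  have h1 := D.L_Z (d + 1)
  rw [D.Z_odd h, mul_smul_comm, L_Z, D.Z_odd h] at h1
  simp only [W, D.γ_eq h, D.Z_odd h]
  linear_combination (norm := module) -h1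

theorem W_reflect [Nonempty X] (hm : 2 ≤ m) {i j : ℕ} (h : i + j = m) : D.W i + D.W j = 0 := by
  wlog hij : j ≤ i generalizing i j
  · rw [add_comm]; exact this (by omega) (by omega)
  obtain ⟨d, hd | hd⟩ : ∃ d, m = 2 * d + 2 ∨ m = 2 * d + 3 := ⟨m / 2 - 1, by omega⟩
  · have := D.reflect (u := d + 1) (v := d) (by simp [D.W_even hd]) (by rw [← L_W, D.W_even hd, mul_zero])
      (d + 1 - j) j (by omega)
    rwa [show d + 1 + (d + 1 - j) = i by omega] at this
  · have h1 := congrArg (D.L * ·) (D.W_odd hd)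
    simp only [mul_add, L_W, mul_zero] at h1
    have := D.reflect (u := d + 2) (v := d) (D.W_odd hd) (by linear_combination (norm := module) h1 - D.W_odd hd)
      (d + 1 - j) j (by omega)
    rwa [show d + 2 + (d + 1 - j) = i by omega] at this

theorem trace_W [Nonempty X] (hm : 3 ≤ m) {i : ℕ} (h : 2 * i + 2 ≤ m) (h' : 2 * i + 2 ≠ m) :
    (D.W (i + 1)).trace = if i = 0 then -((D.p + 1) * Fintype.card X : ℂ) else 0 := by
  have h1 : (D.Z (i + 2)).trace = 0 := by
    by_cases h2 : m = 2 * i + 3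
    · rw [D.Z_odd h2, trace_smul, D.trace_Z h, smul_zero]
    · exact D.trace_Z (by omega)
  have := D.p_ne
  rw [W, trace_sub, trace_sub, trace_smul, trace_smul, h1, D.trace_Z h]
  cases i with
  | zero => rw [trace_Z_zero]; simp; field_simp
  | succ i => rw [D.trace_Z (by omega)]; simp

theorem trace_W' [Nonempty X] (hm : 3 ≤ m) {i : ℕ} (h1 : i ≠ 1) (h2 : i + 1 ≠ m) (h3 : i ≤ m) :
    (D.W i).trace = 0 := by
  wlog h : 2 * i ≤ m generalizing i
  · have h5 := congrArg trace (D.W_reflect (by omega) (Nat.add_sub_cancel' h3))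
    rwa [trace_add, @this (m - i) (by omega) (by omega) (by omega) (by omega), add_zero, trace_zero] at h5
  cases i with
  | zero => simp [W]
  | succ i =>
    by_cases h4 : 2 * i + 2 = m
    · rw [D.W_even h4.symm, trace_zero]
    · rw [D.trace_W hm h h4, if_neg (by omega)]

theorem key [Nonempty X] (hm : 3 ≤ m) {z : ℂ} (hz : z ^ m = 1) (hz2 : z ^ 2 ≠ 1) :
    ∃ c : ℚ, D.γ * (D.p - 1) * (z + z⁻¹) + D.γ ^ 2 + (D.p - 1) ^ 2 = c * ((z + z⁻¹) ^ 2 - 4) := by
  have hz0 : z ≠ 0 := by rintro rfl; rw [zero_pow (by omega)] at hz; exact zero_ne_one hz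
  have hp := D.p_ne
  have hr := D.r_ne
  have hzz : z - z⁻¹ ≠ 0 := by
    intro h; apply hz2; rw [sq]; nth_rw 2 [sub_eq_zero.1 h]; exact mul_inv_cancel₀ hz0
  obtain ⟨n, rfl⟩ : ∃ n, m = n + 2 := ⟨m - 2, by omega⟩
  have hW1 : D.W (n + 1) = -D.W 1 := eq_neg_of_add_eq_zero_left (D.W_reflect (by omega) rfl)
  have hW0 : D.W (n + 2) = 0 := by simpa [W] using D.W_reflect (i := n + 2) (j := 0) (by omega) rfl
  set E := ∑ i ∈ range (n + 1), z ^ (i + 1) • D.W (i + 1) with hE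
  have hL : D.L * E = (z + z⁻¹) • E := by
    have e1 : ∑ i ∈ range (n + 1), z ^ (i + 1) • D.W (i + 2) = z⁻¹ • E - D.W 1 := by
      rw [hE, sum_range_succ, sum_range_succ' (fun i => z ^ (i + 1) • D.W (i + 1)), hW0, smul_zero, add_zero, smul_add,
        smul_sum, smul_smul, zero_add, pow_one, inv_mul_cancel₀ hz0, one_smul, add_sub_cancel_right]
      refine sum_congr rfl fun i _ => ?_
      rw [smul_smul]; congr 1; rw [pow_succ' z (i + 1), inv_mul_cancel_left₀ hz0]
    have e2 : ∑ i ∈ range (n + 1), z ^ (i + 1) • D.W i = z • E + D.W 1 := by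
      rw [hE, sum_range_succ', sum_range_succ (fun i => z ^ (i + 1) • D.W (i + 1)), smul_add, smul_sum, smul_smul,
        ← pow_succ', hz, hW1, show D.W 0 = 0 from rfl]
      simp only [smul_smul, ← pow_succ', smul_zero, one_smul, add_zero, neg_add_cancel_right]
    rw [hE, mul_sum]
    simp only [mul_smul_comm, L_W, smul_add, sum_add_distrib, e1, e2, ← hE]
    module
  have hP : D.P * E = ((D.p : ℂ) + 1) • E := by
    rw [hE, mul_sum, smul_sum]
    simp only [mul_smul_comm, P_W, smul_comm ((D.p : ℂ) + 1)]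
  have hZ0 : D.Z 0 * E = ((D.p + 1) ^ 2 / D.p : ℂ) • E := by
    rw [Z, smul_mul_assoc, hP, smul_smul]; congr 1; field_simp
  have hZ1 : D.Z 1 * E = ((D.p + 1) * (D.γ / D.p + (z + z⁻¹)) : ℂ) • E := by
    have : D.P * D.b * E = (D.r * (z + z⁻¹) + (D.q - 1)) • E := by
      have := congrArg (D.r • ·) hL
      simp only [L, smul_mul_assoc, smul_smul, mul_inv_cancel₀ hr, one_smul, sub_mul, one_mul] at this
      rw [add_smul, ← this, sub_add_cancel]
    rw [Z, smul_mul_assoc, mul_assoc, hP, mul_smul_comm, pow_zero, one_mul, this, smul_smul, smul_smul, γ]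
    congr 1; rw [zero_add, pow_one]; field_simp; ring
  obtain ⟨ω, hω⟩ : ∃ ω, ω = (D.p + 1) / D.p * (D.p * ((z + z⁻¹) ^ 2 - 4) -
      (D.γ * (D.p - 1) * (z + z⁻¹) + D.γ ^ 2 + (D.p - 1) ^ 2)) := ⟨_, rfl⟩
  have hW : ∀ i, D.W i * E = ((z ^ i - z⁻¹ ^ i) / (z - z⁻¹) * ω) • E := by
    intro i
    induction i using Nat.twoStepInduction with
    | zero => simp [W]
    | one =>
      rw [W, ← eq_sub_of_add_eq (D.L_Z 0).symm |>.symm]
      simp only [sub_mul, smul_mul_assoc, mul_assoc, zero_add, hZ0, hZ1, mul_smul_comm, hL, pow_one,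
        div_self hzz, one_mul, hω]
      match_scalars; field_simp; ring
    | more i ih1 ih2 =>
      rw [eq_sub_of_add_eq (D.L_W i).symm, sub_mul, mul_assoc, ih1, ih2, mul_smul_comm, hL]
      match_scalars; simp only [pow_succ]; field_simp; ring
  have hEE : E * E = (-(n + 2 : ℕ) / (z - z⁻¹) * ω) • E := by
    nth_rw 1 [hE]
    simp only [sum_mul, smul_mul_assoc, hW, smul_smul, ← sum_smul]
    congr 1
    have h1 : ∑ i ∈ range (n + 2), (z ^ 2) ^ i = 0 := by
      have := mul_geom_sum (z ^ 2) (n + 2)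
      rw [← pow_mul, mul_comm 2, pow_mul, hz, one_pow, sub_self] at this
      exact (mul_eq_zero.1 this).resolve_left (sub_ne_zero.2 hz2)
    rw [sum_range_succ', pow_zero] at h1
    have h2 : ∀ i, z ^ (i + 1) * ((z ^ (i + 1) - z⁻¹ ^ (i + 1)) / (z - z⁻¹) * ω) =
        ((z ^ 2) ^ (i + 1) - 1) * (ω / (z - z⁻¹)) := fun i => by rw [inv_pow]; field_simp; ring
    simp only [h2, ← sum_mul, sum_sub_distrib, eq_neg_of_add_eq_zero_left h1, sum_const, card_range]
    push_cast; ring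
  have htr : E.trace = -(z - z⁻¹) * ((D.p + 1) * Fintype.card X) := by
    obtain ⟨k, rfl⟩ : ∃ k, n = k + 1 := ⟨n - 1, by omega⟩
    have h1 := D.trace_W hm (i := 0) (by omega) (by omega)
    have h2 : z ^ (k + 1 + 1) = z⁻¹ := eq_inv_of_mul_eq_one_left (by rw [← pow_succ, hz])
    rw [hE, sum_range_succ, sum_range_succ', trace_add, trace_add, trace_sum, sum_eq_zero, hW1, trace_smul, trace_smul,
      trace_neg, h1, h2]
    · simp; ring
    · intro i hi
      rw [mem_range] at hi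
      rw [trace_smul, D.trace_W' hm (by omega) (by omega) (by omega), smul_zero]
  obtain ⟨k, hk⟩ := exists_trace_eq hEE
  have hp1 : (D.p : ℂ) + 1 ≠ 0 := by exact_mod_cast Nat.succ_ne_zero D.p
  have hN : (Fintype.card X : ℂ) ≠ 0 := Nat.cast_ne_zero.2 Fintype.card_ne_zero
  have hn : ((n + 2 : ℕ) : ℂ) ≠ 0 := Nat.cast_ne_zero.2 (by omega)
  rw [htr] at hk
  have hk0 : (k : ℂ) ≠ 0 := by
    rintro h
    rw [h, mul_zero] at hk
    exact mul_ne_zero (neg_ne_zero.2 hzz) (mul_ne_zero hp1 hN) hk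
  refine ⟨D.p - D.p * Fintype.card X / (k * (n + 2 : ℕ)), ?_⟩
  have h4 : (z + z⁻¹) ^ 2 - 4 = (z - z⁻¹) ^ 2 := by field_simp; ring
  rw [hω, h4] at hk
  rw [h4]
  generalize z - z⁻¹ = s at *
  generalize D.γ * (D.p - 1) * (z + z⁻¹) + D.γ ^ 2 + (D.p - 1) ^ 2 = ρ at *
  push_cast at hk hn ⊢
  field_simp at hk ⊢
  linear_combination -hk

theorem γ_ne : D.γ ≠ 0 := by
  have : (D.q : ℂ) - 1 ≠ 0 := sub_ne_zero.2 (by have := D.hq; exact_mod_cast (by omega))
  exact div_ne_zero (mul_ne_zero D.p_ne this) D.r_ne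

theorem γ_sq : D.γ ^ 2 = ((D.p * (D.q - 1) ^ 2 / D.q : ℚ) : ℂ) := by
  have := D.p_ne
  have := D.q_ne
  rw [γ, div_pow, D.r_sq]; push_cast; field_simp

theorem key_even [Nonempty X] (hm : 3 ≤ m) (he : Even m) {z : ℂ} (hz : z ^ m = 1) (hz2 : z ^ 2 ≠ 1) :
    (∃ c : ℚ, z ^ 2 + (z ^ 2)⁻¹ = c) ∧ ∃ c : ℚ, D.γ * (z + z⁻¹) = c := by
  have hz0 : z ≠ 0 := by rintro rfl; rw [zero_pow (by omega)] at hz; exact zero_ne_one hz
  obtain ⟨c, hc⟩ := D.key hm hz hz2
  obtain ⟨c', hc'⟩ := D.key hm (z := -z) (by rw [he.neg_pow, hz]) (by rwa [neg_sq])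
  rw [γ_sq] at hc hc'
  rw [inv_neg] at hc'
  have hP : (0 : ℚ) < D.p - 1 := by
    have : (2 : ℚ) ≤ D.p := by exact_mod_cast D.hp
    linarith
  obtain ⟨g, hg, hg0⟩ : ∃ g : ℚ, g = D.p * (D.q - 1) ^ 2 / D.q + (D.p - 1) ^ 2 ∧ 0 < g := ⟨_, rfl, by positivity⟩
  have h1 : (2 * g : ℂ) = (c + c') * ((z + z⁻¹) ^ 2 - 4) := by rw [hg]; push_cast at *; linear_combination hc + hc'
  have h2 : (c + c' : ℂ) ≠ 0 := by
    intro h; rw [h, zero_mul] at h1; exact hg0.ne' (by simpa using h1)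
  have h3 : (z + z⁻¹) ^ 2 - 4 = ((2 * g / (c + c') : ℚ) : ℂ) := by push_cast; field_simp; field_simp at h1; linear_combination -h1
  have h4 : (D.p : ℂ) - 1 ≠ 0 := by exact_mod_cast hP.ne'
  refine ⟨⟨2 * g / (c + c') + 2, ?_⟩, (c * (2 * g / (c + c')) - g) / (D.p - 1), ?_⟩
  · rw [Rat.cast_add, ← h3]; field_simp; push_cast; ring
  · rw [Rat.cast_div, Rat.cast_sub, Rat.cast_mul, ← h3, ← hc, hg]; push_cast; field_simp; ring

end HeckeData

theorem pow_eq_one_of_rat {z : ℂ} {n : ℕ} (hn : 0 < n) (hz : z ^ n = 1) (h : ∃ c : ℚ, z + z⁻¹ = c) :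
    z ^ 4 = 1 ∨ z ^ 6 = 1 := by
  have hz0 : z ≠ 0 := by rintro rfl; rw [zero_pow (by omega)] at hz; exact zero_ne_one hz
  have h1 : IsIntegral ℤ (z + z⁻¹) :=
    (IsIntegral.of_pow hn (hz ▸ isIntegral_one)).add (.of_pow hn (by rw [inv_pow, hz, inv_one]; exact isIntegral_one))
  obtain ⟨k, hk⟩ := h1.exists_int_iff_exists_rat.1 h
  have h2 : ‖z‖ = 1 := Complex.norm_eq_one_of_pow_eq_one hz hn.ne'
  have h3 : |k| ≤ 2 := by
    have := norm_add_le z z⁻¹
    rw [hk, norm_inv, h2, Complex.norm_intCast] at this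
    norm_num at this
    exact_mod_cast this
  have h4 : z ^ 2 + 1 = k * z := by rw [← hk]; field_simp
  obtain ⟨h5, h6⟩ := abs_le.1 h3
  interval_cases k <;> push_cast at h4
  · left; rw [show z = -1 from eq_neg_of_add_eq_zero_left (pow_eq_zero_iff two_ne_zero |>.1 (by linear_combination h4))]
    norm_num
  · right; linear_combination (z ^ 4 - z ^ 3 + z - 1) * h4
  · left; linear_combination (z ^ 2 - 1) * h4
  · right; linear_combination (z ^ 4 + z ^ 3 - z - 1) * h4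
  · left; rw [show z = 1 from sub_eq_zero.1 (pow_eq_zero_iff two_ne_zero |>.1 (by linear_combination h4))]
    norm_num

theorem feit_higman_alg [Nonempty X] {m : ℕ} (D : HeckeData X m) (hm : 2 ≤ m) :
    m = 2 ∨ m = 3 ∨ m = 4 ∨ m = 6 ∨ m = 8 := by
  rcases hm.eq_or_lt with h | hm3
  · exact Or.inl h.symm
  have hζ := Complex.isPrimitiveRoot_exp m (by omega)
  generalize Complex.exp _ = z at hζ
  have hd : ∀ k, 0 < k → z ^ k = 1 → m ∣ k ∧ m ≤ k := fun k hk h =>
    ⟨hζ.dvd_of_pow_eq_one k h, Nat.le_of_dvd hk (hζ.dvd_of_pow_eq_one k h)⟩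
  have hz2 : z ^ 2 ≠ 1 := fun h => by have := hd 2 (by omega) h; omega
  have hz0 : z ≠ 0 := hζ.ne_zero (by omega)
  rcases Nat.even_or_odd m with he | ho
  · obtain ⟨h1, c, hc⟩ := D.key_even hm3 he hζ.pow_eq_one hz2
    have hz : (z ^ 2) ^ m = 1 := by rw [← pow_mul, mul_comm, pow_mul, hζ.pow_eq_one, one_pow]
    have h12 : m ≠ 12 := by
      rintro rfl
      obtain ⟨-, c', hc'⟩ := D.key_even hm3 he hz (fun h => by have := hd 4 (by omega) (by rwa [← pow_mul] at h); omega)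
      obtain ⟨t, ht⟩ := h1
      have ht0 : (t : ℂ) ≠ 0 := fun h => by
        rw [h] at ht
        have := hd 8 (by omega) (by field_simp at ht; linear_combination (z ^ 4 - 1) * ht)
        omega
      have hγ : D.γ = (c' / t : ℚ) := by rw [Rat.cast_div, ← hc', ht]; field_simp
      have hγ0 := D.γ_ne
      rcases pow_eq_one_of_rat (by omega) hζ.pow_eq_one ⟨c / (c' / t), by rw [Rat.cast_div, ← hγ, ← hc]; field_simp⟩ with h | h <;>
      · have := hd _ (by omega) h; omega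
    obtain ⟨d, rfl⟩ := he
    rcases pow_eq_one_of_rat (by omega) hz h1 with h | h <;>
    · rw [← pow_mul] at h
      obtain ⟨h2, h3⟩ := hd _ (by norm_num) h
      have : d ≤ 6 := by omega
      interval_cases d <;> omega
  · obtain ⟨d, hd'⟩ : ∃ d, m = 2 * d + 3 := ⟨m / 2 - 1, by obtain ⟨k, hk⟩ := ho; omega⟩
    obtain ⟨c, hc⟩ := D.key hm3 hζ.pow_eq_one hz2
    rw [D.γ_eq hd'] at hc
    have h4 : (D.p : ℂ) - 1 ≠ 0 := sub_ne_zero.2 (by have := D.hp; exact_mod_cast (by omega))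
    have h5 : z + z⁻¹ + 2 ≠ 0 := fun h => hz2 (by
      field_simp at h
      rw [show z = -1 from eq_neg_of_add_eq_zero_left (pow_eq_zero_iff two_ne_zero |>.1 (by linear_combination h))]
      norm_num)
    have h6 : ((D.p : ℂ) - 1) ^ 2 = c * (z + z⁻¹ - 2) := mul_right_cancel₀ h5 (by linear_combination hc)
    have h7 : (c : ℂ) ≠ 0 := fun h => h4 (by simpa [h] using h6)
    rcases pow_eq_one_of_rat (by omega) hζ.pow_eq_one ⟨(D.p - 1) ^ 2 / c + 2, by push_cast; rw [h6]; field_simp; ring⟩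
      with h | h <;>
    · obtain ⟨h2, h3⟩ := hd _ (by norm_num) h
      subst hd'
      have : d ≤ 2 := by omega
      interval_cases d <;> omega

end Cfsg.Agent.BN
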