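import Cfsg.Agent.BN.Basic
import Cfsg.Agent.BN.Dihedral
import Cfsg.Agent.BN.FeitHigman

/-!
# The Hecke algebra of a finite (B,N)-pair and the Feit–Higman theorem

`dist x y` is the Weyl distance of two cosets of `B`, `hecke w` the adjacency matrix of distance `w`
(`hecke_s_mul`, `hecke_s_sq`, `hecke_wp`), and `feit_higman` says that in rank two the product of the two
generators of the Weyl group has order 2, 3, 4, 6 or 8.
-/

namespace Cfsg.Agent.BN

open Matrix Finset
open scoped _root_.Classical

variable {G : Type*} [Group G] (P : BNPair G)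

/-- The Weyl distance of two chambers. -/
noncomputable def dist (x y : G ⧸ P.B) : Weyl P := cell P (x.out⁻¹ * y.out)

variable {P}

theorem dist_mk (g h : G) : dist P (g : G ⧸ P.B) h = cell P (g⁻¹ * h) := by
  obtain ⟨b, hb⟩ := QuotientGroup.mk_out_eq_mul P.B g
  obtain ⟨b', hb'⟩ := QuotientGroup.mk_out_eq_mul P.B h
  rw [dist, hb, hb', _root_.mul_inv_rev, mul_assoc, cell_mul_left (inv_mem b.2), ← mul_assoc, cell_mul_right b'.2]

theorem dist_eq_one_iff {x y : G ⧸ P.B} : dist P x y = 1 ↔ x = y := by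
  induction x using QuotientGroup.induction_on
  induction y using QuotientGroup.induction_on
  rw [dist_mk, cell_eq_one_iff, QuotientGroup.eq]

theorem dist_symm (x y : G ⧸ P.B) : dist P y x = (dist P x y)⁻¹ := by
  rw [dist, dist, ← cell_inv, _root_.mul_inv_rev, inv_inv]

theorem dist_smul (g : G) (x y : G ⧸ P.B) : dist P (g • x) (g • y) = dist P x y := by
  induction x using QuotientGroup.induction_on
  induction y using QuotientGroup.induction_on
  simp [dist_mk, mul_assoc]

theorem dist_s {s : P.S} {x y : G ⧸ P.B} (h : dist P x y = (gens P).s s) (z : G ⧸ P.B) :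
    dist P x z = (gens P).s s * dist P y z ∨ dist P x z = dist P y z := by
  have := cell_s_mul h (y.out⁻¹ * z.out)
  rwa [mul_assoc, mul_inv_cancel_left] at this

theorem dist_s_of_le {s : P.S} {x y z : G ⧸ P.B} (h : dist P x y = (gens P).s s)
    (h' : (gens P).len (dist P y z) ≤ (gens P).len ((gens P).s s * dist P y z)) :
    dist P x z = (gens P).s s * dist P y z := by
  have := cell_s_mul_of_le h h'
  rwa [mul_assoc, mul_inv_cancel_left] at this

theorem exists_dist_s (s : P.S) (x z : G ⧸ P.B) :
    ∃ y, dist P x y = (gens P).s s ∧ dist P y z = (gens P).s s * dist P x z := by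
  induction x using QuotientGroup.induction_on with | H x => ?_
  induction z using QuotientGroup.induction_on with | H z => ?_
  obtain ⟨n, hn⟩ := wmk_surjective P (cell P (x⁻¹ * z))
  obtain ⟨b, hb, b', hb', h⟩ := cell_eq_wmk_iff.1 hn.symm
  refine ⟨(x * b * (s : G)⁻¹ : G), ?_, ?_⟩
  · rw [dist_mk, mul_assoc, inv_mul_cancel_left, cell_mul_left hb, cell_inv, cell_s, InvGen.inv_s]
  · rw [dist_mk, dist_mk, ← hn, show (x * b * (s : G)⁻¹)⁻¹ * z = ((toN s * n : P.N) : G) * b' by
      rw [eq_mul_of_inv_mul_eq h]; simp [mul_assoc], cell_mul_right hb', cell_coe, map_mul, gens_s]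

variable (P) in
/-- The adjacency matrix of Weyl distance `w`. -/
noncomputable def hecke (w : Weyl P) : Matrix (G ⧸ P.B) (G ⧸ P.B) ℂ := fun x y => if dist P x y = w then 1 else 0

theorem hecke_one : hecke P 1 = 1 := by
  ext x y; simp [hecke, dist_eq_one_iff, Matrix.one_apply]

variable [Fintype (G ⧸ P.B)]

theorem trace_hecke {w : Weyl P} (h : w ≠ 1) : (hecke P w).trace = 0 :=
  sum_eq_zero fun x _ => if_neg fun h' => h (h'.symm.trans (dist_eq_one_iff.2 rfl))

theorem hecke_mul_apply (v w : Weyl P) (x z : G ⧸ P.B) :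
    (hecke P v * hecke P w) x z = #{y | dist P x y = v ∧ dist P y z = w} := by
  simp only [Matrix.mul_apply, hecke, ite_zero_mul_ite_zero, mul_one, sum_boole]

theorem hecke_s_mul {s : P.S} {w : Weyl P} (h : (gens P).len w ≤ (gens P).len ((gens P).s s * w)) :
    hecke P ((gens P).s s) * hecke P w = hecke P ((gens P).s s * w) := by
  ext x z
  rw [hecke_mul_apply, hecke]
  split_ifs with hz
  · rw [Nat.cast_eq_one, card_eq_one]
    obtain ⟨y, h1, h2⟩ := exists_dist_s s x z
    rw [hz, InvGen.s_mul_s_mul] at h2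
    refine ⟨y, eq_singleton_iff_unique_mem.2 ⟨by simp [h1, h2], fun y' hy' => ?_⟩⟩
    simp only [mem_filter, mem_univ, true_and] at hy'
    rcases dist_s (x := y') (y := x) (s := s) (by rw [dist_symm, hy'.1, InvGen.inv_s]) y with h3 | h3
    · rwa [h1, InvGen.mul_self, dist_eq_one_iff] at h3
    · have := dist_s_of_le (z := z) (h3.trans h1) (by rwa [h2])
      rw [hy'.2, h2] at this
      exact absurd (by simpa using this) (gens_s_ne_one P s)
  · rw [Nat.cast_eq_zero, card_eq_zero, filter_eq_empty_iff]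
    rintro y - ⟨h1, h2⟩
    exact hz (by rw [dist_s_of_le h1 (by rwa [h2]), h2])

/-- The parameter of a generator. -/
noncomputable def param (s : P.S) : ℕ := #{y : G ⧸ P.B | dist P (1 : G) y = (gens P).s s}

theorem card_dist_s (s : P.S) (x : G ⧸ P.B) : #{y | dist P x y = (gens P).s s} = param s := by
  induction x using QuotientGroup.induction_on with | H x => ?_
  refine (card_bijective (x • ·) (MulAction.bijective x) fun y => ?_).symm
  simp only [mem_filter, mem_univ, true_and]
  rw [← dist_smul x]; simp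

theorem two_le_param (s : P.S) : 2 ≤ param s := by
  obtain ⟨b, hb, h⟩ := exists_conj_not_mem s
  refine one_lt_card.2 ⟨((s : G)⁻¹ : G), ?_, (b * (s : G)⁻¹ : G), ?_, fun h' => h ?_⟩
  · simp [dist_mk]
  · simp [dist_mk, cell_mul_left hb]
  · simpa [mul_assoc] using QuotientGroup.eq.1 h'

theorem hecke_s_sq (s : P.S) : hecke P ((gens P).s s) * hecke P ((gens P).s s) =
    ((param s : ℂ) - 1) • hecke P ((gens P).s s) + (param s : ℂ) • 1 := by
  ext x z
  rw [hecke_mul_apply, ← card_dist_s s x]
  simp only [Matrix.add_apply, Matrix.smul_apply, hecke, Matrix.one_apply, smul_eq_mul, mul_ite, mul_one, mul_zero]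
  by_cases hxz : x = z
  · subst hxz
    rw [if_neg (by rw [dist_eq_one_iff.2 rfl]; exact (gens_s_ne_one P s).symm), if_pos rfl, zero_add]
    congr 2; ext y
    simp +contextual [dist_symm x y]
  rw [if_neg hxz, add_zero]
  split_ifs with h
  · rw [eq_sub_iff_add_eq, ← Nat.cast_succ, Nat.cast_inj, 
      ← card_erase_add_one (a := z) (s := {y | dist P x y = (gens P).s s}) (by simp [h])]
    congr 2; ext y
    simp only [mem_filter, mem_univ, true_and, mem_erase]
    refine ⟨fun h1 => ⟨?_, h1.1⟩, fun h1 => ⟨h1.2, ?_⟩⟩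
    · rintro rfl
      exact gens_s_ne_one P s (h1.2.symm.trans (dist_eq_one_iff.2 rfl))
    · rcases dist_s (x := y) (y := x) (s := s) (by rw [dist_symm, h1.2, InvGen.inv_s]) z with h3 | h3
      · rw [h, InvGen.mul_self, dist_eq_one_iff] at h3; exact absurd h3 h1.1
      · rw [h3, h]
  · rw [Nat.cast_eq_zero, card_eq_zero, filter_eq_empty_iff]
    rintro y - ⟨h1, h2⟩
    rcases dist_s h1 z with h3 | h3
    · rw [h2, InvGen.mul_self, dist_eq_one_iff] at h3; exact hxz h3
    · exact h (h3.trans h2)

theorem hecke_wp {l : List P.S} (h : (gens P).Reduced l) :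
    (l.map fun s => hecke P ((gens P).s s)).prod = hecke P ((gens P).wp l) := by
  induction l with
  | nil => simp [hecke_one]
  | cons s l ih =>
    rw [List.map_cons, List.prod_cons, ih h.tail, InvGen.wp_cons, hecke_s_mul]
    rw [← InvGen.wp_cons, h, h.tail]; simp

theorem prod_alt_odd {B M : Type*} [Monoid M] (f : B → M) (a b : B) (i : ℕ) :
    ((InvGen.alt a b (2 * i + 1)).map f).prod = (f a * f b) ^ i * f a := by
  induction i with
  | zero => simp [InvGen.alt]
  | succ i ih =>
    rw [show 2 * (i + 1) + 1 = 2 * i + 1 + 1 + 1 by ring, InvGen.alt, InvGen.alt, List.map_cons, List.map_cons,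
      List.prod_cons, List.prod_cons, ih, pow_succ']
    simp only [mul_assoc]

theorem prod_alt_even {B M : Type*} [Monoid M] (f : B → M) (a b : B) (i : ℕ) :
    ((InvGen.alt a b (2 * i + 2)).map f).prod = f a * ((f b * f a) ^ i * f b) := by
  rw [← prod_alt_odd]; rfl

omit [Fintype (G ⧸ P.B)] in
theorem feit_higman [Finite G] {s t : P.S} (hst : s ≠ t) (hS : ∀ i, i = s ∨ i = t) :
    orderOf ((gens P).s s * (gens P).s t) ∈ ({2, 3, 4, 6, 8} : Set ℕ) := by
  haveI := Fintype.ofFinite (G ⧸ P.B)
  set m := orderOf ((gens P).s s * (gens P).s t) with hm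
  have hm' : m = orderOf ((gens P).s t * (gens P).s s) := by rw [hm, ← orderOf_inv]; simp
  have r1 : ∀ k ≤ m, (gens P).Reduced (InvGen.alt s t k) := fun k hk =>
    InvGen.reduced_alt hS (gens_s_ne_one P s) (gens_s_ne_one P t) hk
  have r2 : ∀ k ≤ m, (gens P).Reduced (InvGen.alt t s k) := fun k hk =>
    InvGen.reduced_alt (fun i => (hS i).symm) (gens_s_ne_one P t) (gens_s_ne_one P s) (hm' ▸ hk)
  have tr : ∀ {l : List P.S}, (gens P).Reduced l → 0 < l.length →
      (l.map fun s => hecke P ((gens P).s s)).prod.trace = 0 := fun h h' => by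
    rw [hecke_wp h, trace_hecke]
    rw [Ne, ← (gens P).len_eq_zero_iff, h]; omega
  have br : ((InvGen.alt s t m).map fun s => hecke P ((gens P).s s)).prod =
      ((InvGen.alt t s m).map fun s => hecke P ((gens P).s s)).prod := by
    rw [hecke_wp (r1 m le_rfl), hecke_wp (r2 m le_rfl), hm, InvGen.wp_alt_orderOf]
  have comm : ∀ (a b : Matrix (G ⧸ P.B) (G ⧸ P.B) ℂ) (i : ℕ), a * (b * a) ^ i = (a * b) ^ i * a := fun a b i => by
    induction i with
    | zero => simp
    | succ i ih => rw [pow_succ, ← mul_assoc, ih, pow_succ]; simp only [mul_assoc]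
  refine feit_higman_alg (X := G ⧸ P.B) ⟨hecke P ((gens P).s s), hecke P ((gens P).s t), param s, param t,
    two_le_param s, two_le_param t, hecke_s_sq s, hecke_s_sq t, trace_hecke (gens_s_ne_one P s), fun i hi => ?_,
    fun i hi => ?_, fun d hd => ?_, fun d hd => ?_⟩ ?_
  · simpa [prod_alt_odd] using tr (r2 _ hi) (by simp)
  · simpa only [prod_alt_even] using tr (r1 _ hi) (by simp)
  · rw [hd, prod_alt_even, prod_alt_even] at br
    rw [br, ← mul_assoc, comm]
  · rw [hd, show 2 * d + 3 = 2 * (d + 1) + 1 by ring, prod_alt_odd, prod_alt_odd] at br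
    rw [← br, ← mul_assoc, comm, pow_succ]; simp only [mul_assoc]
  · have h1 : m ≠ 1 := fun h => hst (gens_injective P (by
      rw [hm, orderOf_eq_one_iff, mul_eq_one_iff_eq_inv, InvGen.inv_s] at h; exact h))
    have h2 : 0 < m := orderOf_pos _
    omega

end Cfsg.Agent.BN
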